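import Cfsg.Agent.Lib.Helper78.FrobSchur3
import Cfsg.Agent.Lib.Helper4.PermChar
import Cfsg.Agent.Lib.Helper4.CharDecomp

set_option autoImplicit false

namespace Cfsg.Agent.Lib.Helper63

open scoped ComplexConjugate

section count

variable {G : Type*} [Group G] [Fintype G] {Ω : Type*} [Fintype Ω] [MulAction G Ω]

theorem gen_card_fixedBy [DecidableEq Ω] (g : G) :
    Nat.card (MulAction.fixedBy Ω g) = ∑ a : Ω, if g • a = a then 1 else 0 := by
  rw [Finset.sum_boole, Nat.cast_id, ← Fintype.card_subtype, ← Nat.card_eq_fintype_card]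
  rfl

theorem gen_sum_sq [DecidableEq Ω] :
    ∑ g : G, (Nat.card (MulAction.fixedBy Ω g)) ^ 2 =
      ∑ a : Ω, ∑ b : Ω, (Finset.univ.filter (fun g : G => g • a = a ∧ g • b = b)).card := by
  simp only [gen_card_fixedBy, sq, Finset.sum_mul_sum, Finset.card_filter]
  rw [Finset.sum_comm]
  refine Finset.sum_congr rfl fun a _ => ?_
  rw [Finset.sum_comm]
  refine Finset.sum_congr rfl fun b _ => ?_
  refine Finset.sum_congr rfl fun g _ => ?_
  by_cases h1 : g • a = a <;> by_cases h2 : g • b = b <;> simp [h1, h2]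

theorem gen_sum_sqr [DecidableEq Ω] :
    ∑ g : G, Nat.card (MulAction.fixedBy Ω (g * g)) =
      ∑ a : Ω, ∑ b : Ω, (Finset.univ.filter (fun g : G => g • a = b ∧ g • b = a)).card := by
  simp only [gen_card_fixedBy, Finset.card_filter]
  rw [Finset.sum_comm]
  refine Finset.sum_congr rfl fun a _ => ?_
  rw [Finset.sum_comm]
  refine Finset.sum_congr rfl fun g _ => ?_
  rw [Finset.sum_eq_single (g • a)]
  · simp [mul_smul]
  · intro b _ hb
    rw [if_neg]
    intro h
    exact hb h.1.symm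
  · simp

theorem gen_swap_le [DecidableEq Ω] (a b : Ω) :
    (Finset.univ.filter (fun g : G => g • a = b ∧ g • b = a)).card ≤
      (Finset.univ.filter (fun g : G => g • a = a ∧ g • b = b)).card := by
  by_cases h : ∃ g : G, g • a = b ∧ g • b = a
  · obtain ⟨g₀, h1, h2⟩ := h
    refine Finset.card_le_card_of_injOn (fun g => g₀ * g) ?_ ?_
    · intro g hg
      simp only [Finset.coe_filter, Finset.mem_univ, true_and, Set.mem_ofPred_eq] at hg ⊢
      rw [mul_smul, mul_smul, hg.1, hg.2]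
      exact ⟨h2, h1⟩
    · intro x _ y _ hxy
      exact mul_left_cancel hxy
  · rw [Finset.filter_false_of_mem]
    · simp
    · intro g _ hg
      exact h ⟨g, hg⟩

theorem gen_swap_of_eq [DecidableEq Ω] (a b : Ω)
    (h : (Finset.univ.filter (fun g : G => g • a = b ∧ g • b = a)).card =
      (Finset.univ.filter (fun g : G => g • a = a ∧ g • b = b)).card) :
    ∃ g : G, g • a = b ∧ g • b = a := by
  have h1 : 0 < (Finset.univ.filter (fun g : G => g • a = a ∧ g • b = b)).card := by
    rw [Finset.card_pos]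
    exact ⟨1, by simp⟩
  rw [← h, Finset.card_pos] at h1
  obtain ⟨g, hg⟩ := h1
  exact ⟨g, by simpa using hg⟩

theorem gen_eq_of_swap [DecidableEq Ω] (a b : Ω) (h : ∃ g : G, g • a = b ∧ g • b = a) :
    (Finset.univ.filter (fun g : G => g • a = b ∧ g • b = a)).card =
      (Finset.univ.filter (fun g : G => g • a = a ∧ g • b = b)).card := by
  refine le_antisymm (gen_swap_le a b) ?_
  obtain ⟨g₀, h1, h2⟩ := h
  refine Finset.card_le_card_of_injOn (fun g => g₀ * g) ?_ ?_
  · intro g hg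
    simp only [Finset.coe_filter, Finset.mem_univ, true_and, Set.mem_ofPred_eq] at hg ⊢
    rw [mul_smul, mul_smul, hg.1, hg.2]
    exact ⟨h1, h2⟩
  · intro x _ y _ hxy
    exact mul_left_cancel hxy

/-- generous transitivity as a counting identity -/
theorem gen_iff_sum :
    (∀ a b : Ω, ∃ g : G, g • a = b ∧ g • b = a) ↔
      ∑ g : G, Nat.card (MulAction.fixedBy Ω (g * g)) =
        ∑ g : G, (Nat.card (MulAction.fixedBy Ω g)) ^ 2 := by
  classical
  rw [gen_sum_sq, gen_sum_sqr]
  constructor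
  · intro h
    exact Finset.sum_congr rfl fun a _ => Finset.sum_congr rfl fun b _ => gen_eq_of_swap a b (h a b)
  · intro h a b
    have h1 := (Finset.sum_eq_sum_iff_of_le (fun a _ =>
      Finset.sum_le_sum fun b _ => gen_swap_le (G := G) a b)).1 h a (Finset.mem_univ a)
    have h2 := (Finset.sum_eq_sum_iff_of_le (fun b _ => gen_swap_le (G := G) a b)).1 h1 b
      (Finset.mem_univ b)
    exact gen_swap_of_eq a b h2

end count

section chars

open Cfsg Matrix Helper78

variable {G : Type*} [Group G] [Fintype G]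

theorem gen_fsNu_sum [Fintype (IrrCharacter G)] (m : IrrCharacter G → ℂ) :
    fsNu (∑ ψ : IrrCharacter G, m ψ • (ψ : G → ℂ)) =
      ∑ ψ : IrrCharacter G, m ψ * fsNu (ψ : G → ℂ) := by
  unfold fsNu
  simp only [Finset.sum_apply, Pi.smul_apply, smul_eq_mul]
  rw [Finset.sum_comm, Finset.mul_sum]
  refine Finset.sum_congr rfl fun ψ _ => ?_
  rw [← Finset.mul_sum]; ring

omit [Fintype G] in
theorem gen_form_inv {n : ℕ} {ρ : Representation ℂ G (Fin n → ℂ)} {M : Matrix (Fin n) (Fin n) ℂ}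
    (hM : fsInv ρ M) (g : G) (x y : Fin n → ℂ) :
    (ρ g x) ⬝ᵥ (M *ᵥ (ρ g y)) = x ⬝ᵥ (M *ᵥ y) := by
  rw [← fsX_mulVec, ← fsX_mulVec, ← Matrix.vecMul_transpose, ← Matrix.dotProduct_mulVec,
    Matrix.mulVec_mulVec, Matrix.mulVec_mulVec, hM g]

theorem gen_alt {n : ℕ} {M : Matrix (Fin n) (Fin n) ℂ} (hM : Mᵀ = -M) (x : Fin n → ℂ) :
    x ⬝ᵥ (M *ᵥ x) = 0 := by
  have h1 : x ⬝ᵥ (M *ᵥ x) = -(x ⬝ᵥ (M *ᵥ x)) := by
    conv_lhs => rw [Matrix.dotProduct_mulVec, ← Matrix.mulVec_transpose, hM, Matrix.neg_mulVec,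
      neg_dotProduct, dotProduct_comm]
  have h2 : (2 : ℂ) * (x ⬝ᵥ (M *ᵥ x)) = 0 := by linear_combination h1
  simpa using h2

/-- an irreducible representation in which a subgroup has a one-dimensional fixed space
carries no nonzero alternating invariant form -/
theorem gen_not_alt {n : ℕ} {ρ : Representation ℂ G (Fin n → ℂ)} (hirr : ρ.IsIrreducible)
    (H : Subgroup G) [Fintype H]
    (h1 : (Nat.card H : ℂ)⁻¹ * ∑ k : H, ρ.character (k : G) = 1)
    {M : Matrix (Fin n) (Fin n) ℂ} (hM : fsInv ρ M) (h0 : M ≠ 0) : Mᵀ ≠ -M := by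
  intro halt
  have hK0 : (Nat.card H : ℂ) ≠ 0 := by exact_mod_cast Nat.card_pos.ne'
  let W : Submodule ℂ (Fin n → ℂ) := Representation.invariants (ρ.comp H.subtype)
  have hWmem : ∀ v, v ∈ W ↔ ∀ k : H, ρ (k : G) v = v := fun v => Iff.rfl
  let e : (Fin n → ℂ) →ₗ[ℂ] (Fin n → ℂ) := (Nat.card H : ℂ)⁻¹ • ∑ k : H, ρ (k : G)
  have he : LinearMap.IsProj W e := by
    constructor
    · intro v
      rw [hWmem]
      intro k'
      change ρ (k' : G) (((Nat.card H : ℂ)⁻¹ • ∑ k : H, ρ (k : G)) v) =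
        ((Nat.card H : ℂ)⁻¹ • ∑ k : H, ρ (k : G)) v
      simp only [LinearMap.smul_apply, LinearMap.sum_apply, map_smul, map_sum]
      congr 1
      conv_rhs => rw [← Equiv.sum_comp (Equiv.mulLeft k')]
      apply Finset.sum_congr rfl
      intro k _
      simp only [Equiv.coe_mulLeft, Subgroup.coe_mul, map_mul, Module.End.mul_apply]
    · intro v hv
      rw [hWmem] at hv
      change ((Nat.card H : ℂ)⁻¹ • ∑ k : H, ρ (k : G)) v = v
      simp only [LinearMap.smul_apply, LinearMap.sum_apply, hv, Finset.sum_const,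
        Finset.card_univ, ← Nat.card_eq_fintype_card]
      rw [← Nat.cast_smul_eq_nsmul ℂ, smul_smul, inv_mul_cancel₀ hK0, one_smul]
  have htr : LinearMap.trace ℂ _ e = 1 := by
    rw [← h1]
    change LinearMap.trace ℂ _ ((Nat.card H : ℂ)⁻¹ • ∑ k : H, ρ (k : G)) = _
    rw [map_smul, map_sum, smul_eq_mul]
    rfl
  have hfr : Module.finrank ℂ W = 1 := by
    have := he.trace
    rw [htr] at this
    exact_mod_cast this.symm
  obtain ⟨w, hw0, hw⟩ := finrank_eq_one_iff'.1 hfr
  have hwW : ∀ k : H, ρ (k : G) (w : Fin n → ℂ) = w := (hWmem _).1 w.2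
  have hB : ∀ v : Fin n → ℂ, (w : Fin n → ℂ) ⬝ᵥ (M *ᵥ v) = 0 := by
    intro v
    have h2 : (w : Fin n → ℂ) ⬝ᵥ (M *ᵥ (e v)) = (w : Fin n → ℂ) ⬝ᵥ (M *ᵥ v) := by
      change (w : Fin n → ℂ) ⬝ᵥ (M *ᵥ (((Nat.card H : ℂ)⁻¹ • ∑ k : H, ρ (k : G)) v)) = _
      simp only [LinearMap.smul_apply, LinearMap.sum_apply, Matrix.mulVec_smul, dotProduct_smul,
        Matrix.mulVec_sum, dotProduct_sum]
      have h3 : ∀ k : H, (w : Fin n → ℂ) ⬝ᵥ (M *ᵥ (ρ (k : G) v)) = (w : Fin n → ℂ) ⬝ᵥ (M *ᵥ v) := by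
        intro k
        conv_lhs => rw [← hwW k]
        exact gen_form_inv hM k _ _
      simp only [h3, Finset.sum_const, Finset.card_univ, ← Nat.card_eq_fintype_card]
      rw [← Nat.cast_smul_eq_nsmul ℂ, smul_smul, inv_mul_cancel₀ hK0, one_smul]
    obtain ⟨c, hc⟩ := hw ⟨e v, he.map_mem v⟩
    have hc' : e v = c • (w : Fin n → ℂ) := by
      have := congrArg Subtype.val hc
      simpa using this.symm
    rw [← h2, hc', Matrix.mulVec_smul, dotProduct_smul, gen_alt halt, smul_zero]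
  have h4 : (w : Fin n → ℂ) ᵥ* M = 0 := by
    rw [← dotProduct_eq_zero_iff]
    intro v
    rw [← Matrix.dotProduct_mulVec]
    exact hB v
  have h5 := Matrix.eq_zero_of_vecMul_eq_zero (fsInv_det_ne_zero hirr hM h0) h4
  exact hw0 (Subtype.ext h5)

end chars

section perm

open Cfsg Matrix Helper78 Helper4

variable {G : Type*} [Group G] [Fintype G] {Ω : Type*} [Fintype Ω] [MulAction G Ω]
  [MulAction.IsPretransitive G Ω]

theorem gen_sum_perm_mul (a : Ω) (f : G → ℂ) (hf : IsClassFunction G f)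
    [Fintype (MulAction.stabilizer G a)] :
    ∑ g : G, (Nat.card (MulAction.fixedBy Ω g) : ℂ) * f g =
      (Nat.card Ω : ℂ) * ∑ k : MulAction.stabilizer G a, f (k : G) := by
  classical
  have h1 : ∀ ω : Ω, ∑ g : G, (if g • ω = ω then f g else 0) =
      ∑ k : MulAction.stabilizer G a, f (k : G) := by
    intro ω
    obtain ⟨x, rfl⟩ := MulAction.exists_smul_eq G a ω
    rw [← Equiv.sum_comp (MulAut.conj x).toEquiv]
    have h2 : ∀ g : G, (if ((MulAut.conj x).toEquiv g) • x • a = x • a then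
        f ((MulAut.conj x).toEquiv g) else 0) =
        if g ∈ MulAction.stabilizer G a then f g else 0 := by
      intro g
      have e1 : (MulAut.conj x).toEquiv g = x * g * x⁻¹ := rfl
      rw [e1, hf g x]
      have h3 : (x * g * x⁻¹) • x • a = x • a ↔ g ∈ MulAction.stabilizer G a := by
        rw [MulAction.mem_stabilizer_iff, ← mul_smul, inv_mul_cancel_right, mul_smul]
        exact smul_left_cancel_iff x
      simp only [h3]
    simp only [h2]
    rw [← Finset.sum_filter, Finset.sum_subtype (p := fun g => g ∈ MulAction.stabilizer G a)]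
    simp
  calc ∑ g : G, (Nat.card (MulAction.fixedBy Ω g) : ℂ) * f g
      = ∑ g : G, ∑ ω : Ω, (if g • ω = ω then f g else 0) := by
        refine Finset.sum_congr rfl fun g _ => ?_
        rw [gen_card_fixedBy]
        push_cast
        rw [Finset.sum_mul]
        refine Finset.sum_congr rfl fun ω _ => ?_
        split_ifs <;> simp
    _ = ∑ ω : Ω, ∑ g : G, (if g • ω = ω then f g else 0) := Finset.sum_comm
    _ = _ := by
        simp only [h1, Finset.sum_const, Finset.card_univ, nsmul_eq_mul, Nat.card_eq_fintype_card]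

theorem gen_nu_eq_one {χ : G → ℂ} (hχ : IsIrrCharacter G χ) (hreal : ∀ g, conj (χ g) = χ g)
    (h1 : classInner (fun g : G => (Nat.card (MulAction.fixedBy Ω g) : ℂ)) χ = 1) :
    fsNu χ = 1 := by
  classical
  have hne : Nonempty Ω := by
    by_contra hemp
    rw [not_nonempty_iff] at hemp
    have h2 : classInner (fun g : G => (Nat.card (MulAction.fixedBy Ω g) : ℂ)) χ = 0 := by
      unfold classInner; simp
    rw [h2] at h1; exact zero_ne_one h1
  obtain ⟨a⟩ := hne
  obtain ⟨n, ρ, hirr, rfl⟩ := hχ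
  obtain ⟨M, h0, hM⟩ := fs_exists_inv hirr (fun g => Complex.conj_eq_iff_im.1 (hreal g))
  have hT := fsInv_transpose_eq hirr hM
  have hH : (Nat.card (MulAction.stabilizer G a) : ℂ)⁻¹ *
      ∑ k : MulAction.stabilizer G a, ρ.character (k : G) = 1 := by
    unfold classInner at h1
    simp only [hreal] at h1
    rw [gen_sum_perm_mul a _ (isClassFunction_of_char ⟨n, ρ, rfl⟩)] at h1
    have hcard : (Nat.card G : ℂ) = Nat.card Ω * Nat.card (MulAction.stabilizer G a) := by
      have h3 := MulAction.card_orbit_mul_card_stabilizer_eq_card_group G a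
      rw [MulAction.orbit_eq_univ] at h3
      simp only [← Nat.card_eq_fintype_card, Nat.card_coe_set_eq, Set.ncard_univ] at h3
      exact_mod_cast h3.symm
    have hΩ : (Nat.card Ω : ℂ) ≠ 0 := by
      have : Nonempty Ω := ⟨a⟩
      exact_mod_cast Nat.card_pos.ne'
    rw [hcard, mul_inv, mul_assoc, mul_comm, mul_assoc, mul_assoc] at h1
    rw [← h1]
    field_simp
  have hna := gen_not_alt hirr _ hH hM h0
  rcases (fsNu_trichotomy hirr).1 with h | h | h
  · rw [h, zero_smul] at hT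
    exact absurd (Matrix.transpose_eq_zero.1 hT) h0
  · exact h
  · rw [h, neg_smul, one_smul] at hT
    exact absurd hT hna

end perm

end Cfsg.Agent.Lib.Helper63
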