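import Cfsg.Agent.Lib.Helper78.FrobSchur3
import Cfsg.Agent.Lib.Helper79.Central
import Cfsg.Agent.Lib.Helper4.RepEquiv

set_option autoImplicit false

namespace Cfsg.Agent.Lib.Helper63

open scoped ComplexConjugate
open Matrix

section cj

variable {n : ℕ}

/-- entrywise complex conjugate of a matrix -/
noncomputable def cj (X : Matrix (Fin n) (Fin n) ℂ) : Matrix (Fin n) (Fin n) ℂ :=
  X.map (starRingEnd ℂ)

theorem cj_apply (X : Matrix (Fin n) (Fin n) ℂ) (i j : Fin n) : cj X i j = conj (X i j) := rfl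

theorem cj_mul (X Y : Matrix (Fin n) (Fin n) ℂ) : cj (X * Y) = cj X * cj Y := Matrix.map_mul

theorem cj_cj (X : Matrix (Fin n) (Fin n) ℂ) : cj (cj X) = X := by
  ext i j; simp [cj_apply]

theorem cj_add (X Y : Matrix (Fin n) (Fin n) ℂ) : cj (X + Y) = cj X + cj Y := by
  ext i j; simp [cj_apply]

theorem cj_smul (c : ℂ) (X : Matrix (Fin n) (Fin n) ℂ) : cj (c • X) = conj c • cj X := by
  ext i j; simp [cj_apply]

theorem cj_one : cj (1 : Matrix (Fin n) (Fin n) ℂ) = 1 := by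
  ext i j
  by_cases h : i = j
  · subst h; simp [cj_apply]
  · simp [cj_apply, h]

theorem cj_transpose (X : Matrix (Fin n) (Fin n) ℂ) : cj Xᵀ = (cj X)ᵀ := rfl

theorem cj_eq_conjTranspose_transpose (X : Matrix (Fin n) (Fin n) ℂ) : cj X = Xᴴᵀ := by
  ext i j; simp [cj_apply, Matrix.conjTranspose_apply]

theorem cj_det (X : Matrix (Fin n) (Fin n) ℂ) : (cj X).det = conj X.det :=
  ((starRingEnd ℂ).map_det X).symm

theorem star_mulVec_cj (X : Matrix (Fin n) (Fin n) ℂ) (v : Fin n → ℂ) :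
    star (X *ᵥ v) = cj X *ᵥ star v := by
  ext i
  simp [Matrix.mulVec, dotProduct, cj_apply]

/-- Hilbert 90 for complex matrices -/
theorem exists_real_structure (C : Matrix (Fin n) (Fin n) ℂ) (hC : C * cj C = 1) :
    ∃ T : Matrix (Fin n) (Fin n) ℂ, T.det ≠ 0 ∧ C * cj T = T := by
  have hden : ∀ s : ℝ, (1 - (s : ℂ) * Complex.I) ≠ 0 := by
    intro s h
    have := congrArg Complex.re h
    simp at this
  have hinj : Function.Injective (fun s : ℝ => (1 + (s : ℂ) * Complex.I) / (1 - (s : ℂ) * Complex.I)) := by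
    intro s t hst
    simp only at hst
    rw [div_eq_div_iff (hden s) (hden t)] at hst
    have h1 : (2 * Complex.I) * ((s : ℂ) - t) = 0 := by linear_combination hst
    have h2 : (2 * Complex.I) ≠ 0 := by simp
    have h3 := (mul_eq_zero.1 h1).resolve_left h2
    exact_mod_cast sub_eq_zero.1 h3
  have hex : ∃ s : ℝ, (-C).charpoly.eval ((1 + (s : ℂ) * Complex.I) / (1 - (s : ℂ) * Complex.I)) ≠ 0 := by
    by_contra hcon
    push Not at hcon
    have h1 : (-C).charpoly = 0 := by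
      apply Polynomial.eq_zero_of_infinite_isRoot
      refine Set.Infinite.mono ?_ (Set.infinite_range_of_injective hinj)
      rintro _ ⟨s, rfl⟩
      exact hcon s
    exact (Matrix.charpoly_monic (-C)).ne_zero h1
  obtain ⟨s, hs⟩ := hex
  refine ⟨(1 + (s : ℂ) * Complex.I) • 1 + (1 - (s : ℂ) * Complex.I) • C, ?_, ?_⟩
  · rw [Matrix.eval_charpoly] at hs
    have h1 : (1 + (s : ℂ) * Complex.I) • (1 : Matrix (Fin n) (Fin n) ℂ) + (1 - (s : ℂ) * Complex.I) • C
        = (1 - (s : ℂ) * Complex.I) •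
          (Matrix.scalar (Fin n) ((1 + (s : ℂ) * Complex.I) / (1 - (s : ℂ) * Complex.I)) - -C) := by
      rw [sub_neg_eq_add, smul_add]
      congr 1
      ext i j
      by_cases h : i = j
      · subst h
        simp only [Matrix.smul_apply, Matrix.one_apply_eq, Matrix.scalar_apply,
          Matrix.diagonal_apply_eq, smul_eq_mul, mul_one]
        rw [mul_div_cancel₀ _ (hden s)]
      · simp [h]
    rw [h1, Matrix.det_smul]
    exact mul_ne_zero (pow_ne_zero _ (hden s)) hs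
  · rw [cj_add, cj_smul, cj_smul, cj_one, Matrix.mul_add, Matrix.mul_smul, Matrix.mul_smul, hC,
      Matrix.mul_one]
    have e1 : conj (1 + (s : ℂ) * Complex.I) = 1 - (s : ℂ) * Complex.I := by
      simp [sub_eq_add_neg]
    have e2 : conj (1 - (s : ℂ) * Complex.I) = 1 + (s : ℂ) * Complex.I := by
      simp
    rw [e1, e2, add_comm]

/-- a matrix representation commuting with a real structure is equivalent to a real one -/
theorem exists_real_rep {G : Type*} [Group G] (X : G → Matrix (Fin n) (Fin n) ℂ) (h1 : X 1 = 1)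
    (hmul : ∀ g h, X (g * h) = X g * X h) (C : Matrix (Fin n) (Fin n) ℂ) (hC : C * cj C = 1)
    (hcomm : ∀ g, C * cj (X g) = X g * C) :
    ∃ ρ : Representation ℝ G (Fin n → ℝ),
      ∀ g, ((LinearMap.trace ℝ (Fin n → ℝ) (ρ g) : ℝ) : ℂ) = (X g).trace := by
  obtain ⟨T, hT, hCT⟩ := exists_real_structure C hC
  have hunit : IsUnit T.det := isUnit_iff_ne_zero.2 hT
  have hTY : ∀ g, T * (T⁻¹ * X g * T) = X g * T := by
    intro g
    rw [Matrix.mul_assoc, ← Matrix.mul_assoc, Matrix.mul_nonsing_inv _ hunit, Matrix.one_mul]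
  have hY : ∀ g, cj (T⁻¹ * X g * T) = T⁻¹ * X g * T := by
    intro g
    have h2 : T * cj (T⁻¹ * X g * T) = X g * T := by
      calc T * cj (T⁻¹ * X g * T) = C * cj T * cj (T⁻¹ * X g * T) := by rw [hCT]
        _ = C * cj (T * (T⁻¹ * X g * T)) := by rw [cj_mul T, Matrix.mul_assoc]
        _ = C * cj (X g) * cj T := by rw [hTY, cj_mul, Matrix.mul_assoc]
        _ = X g * (C * cj T) := by rw [hcomm, Matrix.mul_assoc]
        _ = X g * T := by rw [hCT]
    calc cj (T⁻¹ * X g * T) = T⁻¹ * (T * cj (T⁻¹ * X g * T)) := by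
          rw [← Matrix.mul_assoc, Matrix.nonsing_inv_mul _ hunit, Matrix.one_mul]
      _ = T⁻¹ * X g * T := by rw [h2, Matrix.mul_assoc]
  have hZ : ∀ g, ((T⁻¹ * X g * T).map Complex.re).map Complex.ofRealHom = T⁻¹ * X g * T := by
    intro g
    ext i j
    have h3 := congrFun (congrFun (hY g) i) j
    rw [cj_apply] at h3
    simp only [Matrix.map_apply, Complex.ofRealHom_eq_coe]
    exact Complex.conj_eq_iff_re.1 h3
  have hinj : Function.Injective
      (fun M : Matrix (Fin n) (Fin n) ℝ => M.map Complex.ofRealHom) :=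
    Matrix.map_injective Complex.ofReal_injective
  have hone : (T⁻¹ * X 1 * T).map Complex.re = 1 := by
    apply hinj
    simp only
    rw [hZ, h1, Matrix.mul_one, Matrix.nonsing_inv_mul _ hunit, Matrix.map_one _ (map_zero _) (map_one _)]
  have hmulZ : ∀ g h, (T⁻¹ * X (g * h) * T).map Complex.re =
      (T⁻¹ * X g * T).map Complex.re * (T⁻¹ * X h * T).map Complex.re := by
    intro g h
    apply hinj
    simp only
    rw [Matrix.map_mul, hZ, hZ, hZ, hmul]
    calc T⁻¹ * (X g * X h) * T = T⁻¹ * X g * (T * T⁻¹) * X h * T := by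
          rw [Matrix.mul_nonsing_inv _ hunit, Matrix.mul_one]; simp only [Matrix.mul_assoc]
      _ = T⁻¹ * X g * T * (T⁻¹ * X h * T) := by simp only [Matrix.mul_assoc]
  refine ⟨{ toFun := fun g => Matrix.toLin' ((T⁻¹ * X g * T).map Complex.re)
            map_one' := by rw [hone, Matrix.toLin'_one]; rfl
            map_mul' := fun g h => by rw [hmulZ, Matrix.toLin'_mul]; rfl }, ?_⟩
  intro g
  change ((LinearMap.trace ℝ (Fin n → ℝ) (Matrix.toLin' ((T⁻¹ * X g * T).map Complex.re)) : ℝ) : ℂ) = _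
  rw [Matrix.trace_toLin'_eq]
  have h4 : ((((T⁻¹ * X g * T).map Complex.re).trace : ℝ) : ℂ) =
      (((T⁻¹ * X g * T).map Complex.re).map Complex.ofRealHom).trace := by
    simp [Matrix.trace]
  rw [h4, hZ, Matrix.mul_assoc, Matrix.trace_mul_comm, Matrix.mul_assoc,
    Matrix.mul_nonsing_inv _ hunit, Matrix.mul_one]

end cj

section herm

open Helper78

variable {G : Type*} [Group G] [Fintype G] {n : ℕ}

/-- the averaged Hermitian form -/
noncomputable def hermA (ρ : Representation ℂ G (Fin n → ℂ)) : Matrix (Fin n) (Fin n) ℂ :=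
  ∑ g : G, (fsX ρ g)ᴴ * fsX ρ g

theorem hermA_inv (ρ : Representation ℂ G (Fin n → ℂ)) (h : G) :
    (fsX ρ h)ᴴ * hermA ρ * fsX ρ h = hermA ρ := by
  unfold hermA
  rw [Finset.mul_sum, Finset.sum_mul]
  conv_rhs => rw [← Equiv.sum_comp (Equiv.mulRight h)]
  refine Finset.sum_congr rfl fun g _ => ?_
  simp only [Equiv.coe_mulRight, fsX_mul, Matrix.conjTranspose_mul, Matrix.mul_assoc]

theorem hermA_mul (ρ : Representation ℂ G (Fin n → ℂ)) (g : G) :
    hermA ρ * fsX ρ g = (fsX ρ g⁻¹)ᴴ * hermA ρ := by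
  have h1 : (fsX ρ g⁻¹)ᴴ * (fsX ρ g)ᴴ = 1 := by
    rw [← Matrix.conjTranspose_mul, ← fsX_mul, mul_inv_cancel, fsX_one, Matrix.conjTranspose_one]
  calc hermA ρ * fsX ρ g = ((fsX ρ g⁻¹)ᴴ * (fsX ρ g)ᴴ) * hermA ρ * fsX ρ g := by
        rw [h1, Matrix.one_mul]
    _ = (fsX ρ g⁻¹)ᴴ * ((fsX ρ g)ᴴ * hermA ρ * fsX ρ g) := by simp only [Matrix.mul_assoc]
    _ = (fsX ρ g⁻¹)ᴴ * hermA ρ := by rw [hermA_inv]

theorem hermA_quad (ρ : Representation ℂ G (Fin n → ℂ)) (u : Fin n → ℂ) :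
    star u ⬝ᵥ (hermA ρ *ᵥ u) =
      ((∑ g : G, ∑ i, Complex.normSq ((fsX ρ g *ᵥ u) i) : ℝ) : ℂ) := by
  unfold hermA
  rw [Matrix.sum_mulVec, dotProduct_sum]
  push_cast
  refine Finset.sum_congr rfl fun g _ => ?_
  rw [← Matrix.mulVec_mulVec, Matrix.dotProduct_mulVec, ← Matrix.star_mulVec]
  simp only [dotProduct, Pi.star_apply]
  refine Finset.sum_congr rfl fun i _ => ?_
  rw [Complex.normSq_eq_conj_mul_self]
  rfl

theorem hermA_quad_pos (ρ : Representation ℂ G (Fin n → ℂ)) {u : Fin n → ℂ} (hu : u ≠ 0) :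
    0 < ∑ g : G, ∑ i, Complex.normSq ((fsX ρ g *ᵥ u) i) := by
  obtain ⟨i, hi⟩ := Function.ne_iff.1 hu
  have h1 : 0 < ∑ i, Complex.normSq ((fsX ρ 1 *ᵥ u) i) := by
    rw [fsX_one, Matrix.one_mulVec]
    refine Finset.sum_pos' (fun j _ => Complex.normSq_nonneg _) ⟨i, Finset.mem_univ _, ?_⟩
    exact Complex.normSq_pos.2 hi
  refine Finset.sum_pos' (fun g _ => Finset.sum_nonneg fun j _ => Complex.normSq_nonneg _)
    ⟨1, Finset.mem_univ _, h1⟩

theorem hermA_det_ne_zero (ρ : Representation ℂ G (Fin n → ℂ)) : (hermA ρ).det ≠ 0 := by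
  intro hdet
  obtain ⟨v, hv, hAv⟩ := Matrix.exists_mulVec_eq_zero_iff.2 hdet
  have h1 := hermA_quad ρ v
  rw [hAv, dotProduct_zero] at h1
  have h2 := hermA_quad_pos ρ hv
  have h3 : (∑ g : G, ∑ i, Complex.normSq ((fsX ρ g *ᵥ v) i) : ℝ) = 0 := by exact_mod_cast h1.symm
  exact h2.ne' h3

theorem symm_dot {S : Matrix (Fin n) (Fin n) ℂ} (hS : Sᵀ = S) (x y : Fin n → ℂ) :
    x ⬝ᵥ (S *ᵥ y) = y ⬝ᵥ (S *ᵥ x) := by
  rw [Matrix.dotProduct_mulVec, ← Matrix.mulVec_transpose, hS, dotProduct_comm]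

/-- an irreducible representation with a symmetric invariant form has a real structure -/
theorem exists_structure_of_symm {ρ : Representation ℂ G (Fin n → ℂ)} (hirr : ρ.IsIrreducible)
    {M : Matrix (Fin n) (Fin n) ℂ} (hM : fsInv ρ M) (h0 : M ≠ 0) (hsym : Mᵀ = M) :
    ∃ C : Matrix (Fin n) (Fin n) ℂ, C * cj C = 1 ∧ ∀ g, C * cj (fsX ρ g) = fsX ρ g * C := by
  have hA : IsUnit (hermA ρ).det := isUnit_iff_ne_zero.2 (hermA_det_ne_zero ρ)
  have hMdet : (cj M).det ≠ 0 := by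
    rw [cj_det]
    intro h
    exact fsInv_det_ne_zero hirr hM h0 ((map_eq_zero _).1 h)
  obtain ⟨C₀, hC₀⟩ : ∃ C₀, C₀ = (hermA ρ)⁻¹ * cj M := ⟨_, rfl⟩
  have hAC : hermA ρ * C₀ = cj M := by
    rw [hC₀, ← Matrix.mul_assoc, Matrix.mul_nonsing_inv _ hA, Matrix.one_mul]
  have hcancel : ∀ U V : Matrix (Fin n) (Fin n) ℂ, hermA ρ * U = hermA ρ * V → U = V := by
    intro U V h
    have := congrArg (fun W => (hermA ρ)⁻¹ * W) h
    simpa only [← Matrix.mul_assoc, Matrix.nonsing_inv_mul _ hA, Matrix.one_mul] using this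
  have hcomm : ∀ g, C₀ * cj (fsX ρ g) = fsX ρ g * C₀ := by
    intro g
    apply hcancel
    rw [← Matrix.mul_assoc, hAC, ← cj_mul, fsInv_mul hM g, cj_mul, ← Matrix.mul_assoc, hermA_mul,
      Matrix.mul_assoc, hAC]
    rfl
  have hD : ∀ g, (C₀ * cj C₀) * fsX ρ g = fsX ρ g * (C₀ * cj C₀) := by
    intro g
    calc (C₀ * cj C₀) * fsX ρ g = C₀ * cj (C₀ * cj (fsX ρ g)) := by
          rw [cj_mul, cj_cj, Matrix.mul_assoc]
      _ = (C₀ * cj (fsX ρ g)) * cj C₀ := by rw [hcomm, cj_mul, ← Matrix.mul_assoc, hcomm]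
      _ = fsX ρ g * (C₀ * cj C₀) := by rw [hcomm, Matrix.mul_assoc]
  obtain ⟨c, hc⟩ : ∃ c : ℂ, C₀ * cj C₀ = c • 1 := by
    have := hirr
    obtain ⟨c, hc⟩ := Helper79.schur_scalar ρ (Matrix.toLin' (C₀ * cj C₀)) (by
      intro g
      have e : ρ g = Matrix.toLin' (fsX ρ g) := by
        unfold fsX; rw [Matrix.toLin'_toMatrix']
      rw [e, ← Matrix.toLin'_mul, ← Matrix.toLin'_mul, hD])
    refine ⟨c, ?_⟩
    have h1 := congrArg LinearMap.toMatrix' hc
    rw [LinearMap.toMatrix'_toLin', map_smul, LinearMap.toMatrix'_id] at h1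
    exact h1
  -- a nonzero vector
  obtain ⟨u, hu⟩ : ∃ u : Fin n → ℂ, u ≠ 0 := by
    by_contra hcon
    push Not at hcon
    apply h0
    ext i j
    have h1 := congrFun (hcon (Pi.single j 1)) j
    simp at h1
  have hsu : star u ≠ 0 := by
    intro h
    apply hu
    have := congrArg star h
    simpa using this
  obtain ⟨w, hw⟩ : ∃ w, w = C₀ *ᵥ star u := ⟨_, rfl⟩
  have hAw : hermA ρ *ᵥ w = cj M *ᵥ star u := by
    rw [hw, Matrix.mulVec_mulVec, hAC]
  have hw0 : w ≠ 0 := by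
    intro h
    rw [h, Matrix.mulVec_zero] at hAw
    exact hsu (Matrix.eq_zero_of_mulVec_eq_zero hMdet hAw.symm)
  have hCw : C₀ *ᵥ star w = c • u := by
    rw [hw, star_mulVec_cj, star_star, Matrix.mulVec_mulVec, hc, Matrix.smul_mulVec,
      Matrix.one_mulVec]
  have hAu : c • (hermA ρ *ᵥ u) = cj M *ᵥ star w := by
    rw [← Matrix.mulVec_smul, ← hCw, Matrix.mulVec_mulVec, hAC]
  have hsymc : (cj M)ᵀ = cj M := by rw [← cj_transpose, hsym]
  have hQ : star w ⬝ᵥ (hermA ρ *ᵥ w) = c * (star u ⬝ᵥ (hermA ρ *ᵥ u)) := by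
    rw [hAw, symm_dot hsymc, ← hAu, dotProduct_smul, smul_eq_mul]
  rw [hermA_quad, hermA_quad] at hQ
  have hpu := hermA_quad_pos ρ hu
  have hpw := hermA_quad_pos ρ hw0
  obtain ⟨ru, hru⟩ : ∃ r : ℝ, r = ∑ g : G, ∑ i, Complex.normSq ((fsX ρ g *ᵥ u) i) := ⟨_, rfl⟩
  obtain ⟨rw', hrw⟩ : ∃ r : ℝ, r = ∑ g : G, ∑ i, Complex.normSq ((fsX ρ g *ᵥ w) i) := ⟨_, rfl⟩
  rw [← hru, ← hrw] at hQ
  rw [← hru] at hpu
  rw [← hrw] at hpw
  have hcr : c = ((rw' / ru : ℝ) : ℂ) := by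
    have hru0 : (ru : ℂ) ≠ 0 := by exact_mod_cast hpu.ne'
    push_cast
    rw [hQ, mul_div_assoc, div_self hru0, mul_one]
  have hr : 0 < rw' / ru := div_pos hpw hpu
  obtain ⟨r, hrdef⟩ : ∃ r : ℝ, r = rw' / ru := ⟨_, rfl⟩
  rw [← hrdef] at hcr hr
  refine ⟨(((Real.sqrt r)⁻¹ : ℝ) : ℂ) • C₀, ?_, ?_⟩
  · rw [cj_smul, Complex.conj_ofReal, Matrix.smul_mul, Matrix.mul_smul, hc, smul_smul, smul_smul, hcr]
    have h1 : (((Real.sqrt r)⁻¹ : ℝ) : ℂ) * (((Real.sqrt r)⁻¹ : ℝ) : ℂ) * (r : ℂ) = 1 := by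
      have h2 : (Real.sqrt r)⁻¹ * (Real.sqrt r)⁻¹ * r = 1 := by
        have h3 : Real.sqrt r * Real.sqrt r = r := Real.mul_self_sqrt hr.le
        have h4 : Real.sqrt r ≠ 0 := (Real.sqrt_pos.2 hr).ne'
        field_simp
        nlinarith [h3]
      exact_mod_cast h2
    rw [h1, one_smul]
  · intro g
    rw [Matrix.smul_mul, Matrix.mul_smul, hcomm]

end herm

section conv

open Helper78 Cfsg

variable {G : Type*} [Group G] [Fintype G] {n : ℕ}

theorem nu_eq_one_of_real {χ : G → ℂ} (hχ : IsIrrCharacter G χ)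
    (ρR : Representation ℝ G (Fin n → ℝ))
    (h : ∀ g, ((LinearMap.trace ℝ (Fin n → ℝ) (ρR g) : ℝ) : ℂ) = χ g) : fsNu χ = 1 := by
  have hY1 : LinearMap.toMatrix' (ρR 1) = 1 := by
    rw [map_one, Module.End.one_eq_id, LinearMap.toMatrix'_id]
  have hYmul : ∀ g h, LinearMap.toMatrix' (ρR (g * h)) =
      LinearMap.toMatrix' (ρR g) * LinearMap.toMatrix' (ρR h) := by
    intro g h
    rw [map_mul, Module.End.mul_eq_comp, LinearMap.toMatrix'_comp]
  let ρC : Representation ℂ G (Fin n → ℂ) :=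
    { toFun := fun g => Matrix.toLin' ((LinearMap.toMatrix' (ρR g)).map Complex.ofRealHom)
      map_one' := by
        rw [hY1, Matrix.map_one _ (map_zero _) (map_one _), Matrix.toLin'_one]; rfl
      map_mul' := fun g h => by
        rw [hYmul, Matrix.map_mul, Matrix.toLin'_mul]; rfl }
  have hX : ∀ g, fsX ρC g = (LinearMap.toMatrix' (ρR g)).map Complex.ofRealHom := by
    intro g
    change LinearMap.toMatrix' (Matrix.toLin' _) = _
    rw [LinearMap.toMatrix'_toLin']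
  have hchar : ρC.character = χ := by
    funext g
    rw [← fsX_trace, hX, ← h g, LinearMap.trace_eq_matrix_trace ℝ (Pi.basisFun ℝ (Fin n)),
      LinearMap.toMatrix_eq_toMatrix']
    simp [Matrix.trace]
  have hirr : ρC.IsIrreducible := by
    obtain ⟨m, σ, hσ, hσc⟩ := hχ
    obtain ⟨φ⟩ := Helper4.equiv_of_char_eq_fin n m ρC σ (hchar.trans hσc.symm)
    exact Helper4.isIrreducible_of_equiv φ
  obtain ⟨S, hS⟩ : ∃ S : Matrix (Fin n) (Fin n) ℝ,
      S = ∑ g : G, (LinearMap.toMatrix' (ρR g))ᵀ * LinearMap.toMatrix' (ρR g) := ⟨_, rfl⟩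
  have hSinv : ∀ h, (LinearMap.toMatrix' (ρR h))ᵀ * S * LinearMap.toMatrix' (ρR h) = S := by
    intro h
    rw [hS, Finset.mul_sum, Finset.sum_mul]
    conv_rhs => rw [← Equiv.sum_comp (Equiv.mulRight h)]
    refine Finset.sum_congr rfl fun g _ => ?_
    simp only [Equiv.coe_mulRight, hYmul, Matrix.transpose_mul, Matrix.mul_assoc]
  have hSsym : Sᵀ = S := by
    rw [hS, Matrix.transpose_sum]
    refine Finset.sum_congr rfl fun g _ => ?_
    rw [Matrix.transpose_mul, Matrix.transpose_transpose]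
  have hM : fsInv ρC (S.map Complex.ofRealHom) := by
    intro g
    rw [hX, ← Matrix.transpose_map, ← Matrix.map_mul, ← Matrix.map_mul, hSinv]
  have hMsym : (S.map Complex.ofRealHom)ᵀ = S.map Complex.ofRealHom := by
    rw [← Matrix.transpose_map, hSsym]
  have hn : 0 < n := by
    rcases Nat.eq_zero_or_pos n with h0 | h0
    · exfalso
      subst h0
      have h1 := Helper4.irr_apply_one_ne_zero hχ
      apply h1
      rw [← h 1]
      simp
    · exact h0
  have hM0 : S.map Complex.ofRealHom ≠ 0 := by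
    intro h0
    have h1 := congrFun (congrFun h0 ⟨0, hn⟩) ⟨0, hn⟩
    simp only [Matrix.map_apply, Matrix.zero_apply, Complex.ofRealHom_eq_coe,
      Complex.ofReal_eq_zero] at h1
    rw [hS, Matrix.sum_apply] at h1
    have h2 : 0 < ∑ g : G, ((LinearMap.toMatrix' (ρR g))ᵀ * LinearMap.toMatrix' (ρR g)) ⟨0, hn⟩ ⟨0, hn⟩ := by
      refine Finset.sum_pos' (fun g _ => ?_) ⟨1, Finset.mem_univ _, ?_⟩
      · rw [Matrix.mul_apply]
        exact Finset.sum_nonneg fun k _ => mul_self_nonneg _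
      · rw [hY1]; simp
    exact h2.ne' h1
  have hT := fsInv_transpose_eq hirr hM
  rw [hMsym, hchar] at hT
  have h5 : (1 - fsNu χ) • (S.map Complex.ofRealHom) = 0 := by
    rw [sub_smul, one_smul, ← hT, sub_self]
  rcases smul_eq_zero.1 h5 with h6 | h6
  · exact (sub_eq_zero.1 h6).symm
  · exact absurd h6 hM0

theorem exists_real_of_nu_eq_one {χ : G → ℂ} (hχ : IsIrrCharacter G χ) (hν : fsNu χ = 1) :
    ∃ (n : ℕ) (ρ : Representation ℝ G (Fin n → ℝ)),
      ∀ g : G, ((LinearMap.trace ℝ (Fin n → ℝ) (ρ g) : ℝ) : ℂ) = χ g := by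
  have hreal : ∀ g : G, (χ g).im = 0 := by
    by_contra hcon
    push Not at hcon
    have := (fsNu_irr hχ).2.2 hcon
    rw [hν] at this
    exact one_ne_zero this
  obtain ⟨n, ρ, hirr, rfl⟩ := hχ
  obtain ⟨M, h0, hM⟩ := fs_exists_inv hirr hreal
  have hT := fsInv_transpose_eq hirr hM
  rw [hν, one_smul] at hT
  obtain ⟨C, hC, hcomm⟩ := exists_structure_of_symm hirr hM h0 hT
  obtain ⟨ρR, hρR⟩ := exists_real_rep (fsX ρ) (fsX_one ρ) (fsX_mul ρ) C hC hcomm
  exact ⟨n, ρR, fun g => by rw [hρR, fsX_trace]⟩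

end conv

end Cfsg.Agent.Lib.Helper63
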