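import Cfsg.Agent.Lib.Helper79.GaloisRat
import Cfsg.Agent.Lib.Helper79.GaloisChar
import Cfsg.Agent.Lib.Helper77.CharCongr
import Cfsg.Agent.Lib.Helper20.CharBasic
import Cfsg.Agent.Lib.Helper4.CharInner
import Cfsg.Prelude.Def_Blocks

set_option autoImplicit false

namespace Cfsg.Agent.Lib.Helper63

open Cfsg

theorem pow_eq_pow_of_modEq' {M : Type*} [Monoid M] {z : M} {r a b : ℕ} (hz : z ^ r = 1)
    (h : a ≡ b [MOD r]) : z ^ a = z ^ b := by
  rw [← Nat.mod_add_div a r, ← Nat.mod_add_div b r, pow_add, pow_add, pow_mul, pow_mul, hz,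
    one_pow, one_pow, h]

/-- a `p`-rational character is constant on generators of cyclic `p`-subgroups -/
theorem prat_pow_eq {G : Type*} [Group G] {χ : G → ℂ} (hχ : IsCharacter G χ) (p r : ℕ)
    (hp : p.Prime) (hr : 0 < r) (hpr : ¬ p ∣ r)
    (hrat : ∀ g : G, χ g ∈ IntermediateField.adjoin ℚ
      ({Complex.exp (2 * Real.pi * Complex.I / r)} : Set ℂ))
    (x : G) (k : ℕ) (hx : x ^ p ^ k = 1) (u : ℕ) (hu : u.Coprime p) : χ (x ^ u) = χ x := by
  have hco : Nat.Coprime r (p ^ k) :=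
    Nat.Coprime.pow_right k ((Nat.Prime.coprime_iff_not_dvd hp).2 hpr).symm
  obtain ⟨k', hk1, hk2⟩ := Nat.chineseRemainder hco 1 u
  have hN : 0 < r * p ^ k := Nat.mul_pos hr (pow_pos hp.pos k)
  have hk' : k'.Coprime (r * p ^ k) := by
    apply Nat.Coprime.mul_right
    · have := hk1.gcd_eq
      rw [Nat.Coprime, this]; simp
    · have := hk2.gcd_eq
      rw [Nat.Coprime, this]
      exact Nat.Coprime.pow_right k hu
  obtain ⟨τ, hτ1, hτ2⟩ := Helper79.exists_galois (r * p ^ k) k' hN hk'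
  have hζ : (Complex.exp (2 * Real.pi * Complex.I / r)) ^ r = 1 :=
    (Complex.isPrimitiveRoot_exp r hr.ne').pow_eq_one
  have hτζ : τ (Complex.exp (2 * Real.pi * Complex.I / r)) =
      Complex.exp (2 * Real.pi * Complex.I / r) := by
    rw [hτ1 _ (by rw [pow_mul, hζ, one_pow]), pow_eq_pow_of_modEq' hζ hk1, pow_one]
  have hfix : ∀ z ∈ IntermediateField.adjoin ℚ
      ({Complex.exp (2 * Real.pi * Complex.I / r)} : Set ℂ), τ z = z := by
    intro z hz
    induction hz using IntermediateField.adjoin_induction with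
    | mem y hy =>
      rw [Set.mem_singleton_iff] at hy
      rw [hy, hτζ]
    | algebraMap q => simp
    | add y w _ _ h1 h2 => rw [map_add, h1, h2]
    | inv y _ h1 => rw [map_inv₀, h1]
    | mul y w _ _ h1 h2 => rw [map_mul, h1, h2]
  have h1 := hτ2 G χ hχ x (by rw [mul_comm, pow_mul, hx, one_pow])
  rw [hfix _ (hrat x), pow_eq_pow_of_modEq' hx hk2] at h1
  exact h1.symm

theorem sum_not_dvd (p N : ℕ) (hp : 0 < p) (g : ℕ → ℂ) :
    ∑ j ∈ (Finset.range (p * N)).filter (fun j => ¬ p ∣ j), g j =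
      ∑ j ∈ Finset.range (p * N), g j - ∑ i ∈ Finset.range N, g (p * i) := by
  rw [← Finset.sum_filter_add_sum_filter_not (Finset.range (p * N)) (fun j => p ∣ j)]
  have h1 : (Finset.range (p * N)).filter (fun j => p ∣ j) =
      (Finset.range N).image (fun i => p * i) := by
    ext j
    simp only [Finset.mem_filter, Finset.mem_range, Finset.mem_image]
    constructor
    · rintro ⟨h1, i, rfl⟩
      exact ⟨i, lt_of_mul_lt_mul_left h1 (Nat.zero_le _), rfl⟩
    · rintro ⟨i, hi, rfl⟩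
      exact ⟨Nat.mul_lt_mul_of_pos_left hi hp, dvd_mul_right _ _⟩
  rw [h1, Finset.sum_image (fun a _ b _ h => Nat.eq_of_mul_eq_mul_left hp h)]
  ring

theorem geom_root (μ : ℂ) (N : ℕ) (h : μ ^ N = 1) :
    ∑ j ∈ Finset.range N, μ ^ j = if μ = 1 then (N : ℂ) else 0 := by
  split_ifs with h1
  · simp [h1]
  · have h2 := mul_neg_geom_sum μ N
    rw [h, sub_self] at h2
    exact (mul_eq_zero.1 h2).resolve_left (sub_ne_zero.2 (Ne.symm h1))

/-- lower bound for a rational value at a `p`-element -/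
theorem prat_bound {G : Type*} [Group G] {χ : G → ℂ} (hχ : IsCharacter G χ) (p : ℕ)
    (hp : p.Prime) (x : G) (K : ℕ) (hx : x ^ p ^ (K + 1) = 1) (z : ℤ) (hz : χ x = z)
    (hpow : ∀ u : ℕ, u.Coprime p → χ (x ^ u) = χ x) (n : ℕ) (hn : χ 1 = n) :
    -(n : ℤ) ≤ ((p : ℤ) - 1) * z := by
  classical
  obtain ⟨s, m, h1, h2, h3⟩ :=
    Helper79.IsCharacter.exists_weights χ hχ x (p ^ (K + 1)) (pow_pos hp.pos _) hx
  have hN : p ^ (K + 1) = p * p ^ K := pow_succ' p K
  have e1 := sum_not_dvd p (p ^ K) hp.pos (fun j => χ (x ^ j))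
  have e2 := sum_not_dvd p (p ^ K) hp.pos (fun _ => (z : ℂ))
  have e3 : ∑ j ∈ (Finset.range (p * p ^ K)).filter (fun j => ¬ p ∣ j), χ (x ^ j) =
      ∑ j ∈ (Finset.range (p * p ^ K)).filter (fun j => ¬ p ∣ j), (z : ℂ) := by
    refine Finset.sum_congr rfl fun j hj => ?_
    rw [hpow j ((Nat.Prime.coprime_iff_not_dvd hp).2 (Finset.mem_filter.1 hj).2).symm, hz]
  have e4 : ∑ j ∈ Finset.range (p * p ^ K), χ (x ^ j) =
      ((p * p ^ K : ℕ) : ℂ) * ((∑ μ ∈ s, if μ = 1 then m μ else 0 : ℕ) : ℂ) := by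
    simp only [h3]
    rw [Finset.sum_comm]
    push_cast
    rw [Finset.mul_sum]
    refine Finset.sum_congr rfl fun μ hμ => ?_
    rw [← Finset.mul_sum, geom_root μ (p * p ^ K) (by rw [← hN]; exact h1 μ hμ)]
    split_ifs <;> push_cast <;> ring
  have e5 : ∑ i ∈ Finset.range (p ^ K), χ (x ^ (p * i)) =
      ((p ^ K : ℕ) : ℂ) * ((∑ μ ∈ s, if μ ^ p = 1 then m μ else 0 : ℕ) : ℂ) := by
    simp only [h3]
    rw [Finset.sum_comm]
    push_cast
    rw [Finset.mul_sum]
    refine Finset.sum_congr rfl fun μ hμ => ?_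
    rw [← Finset.mul_sum]
    simp only [pow_mul]
    rw [geom_root (μ ^ p) (p ^ K) (by rw [← pow_mul, ← hN]; exact h1 μ hμ)]
    split_ifs <;> push_cast <;> ring
  obtain ⟨w0, hw0⟩ : ∃ w : ℕ, w = ∑ μ ∈ s, if μ = 1 then m μ else 0 := ⟨_, rfl⟩
  obtain ⟨w1, hw1⟩ : ∃ w : ℕ, w = ∑ μ ∈ s, if μ ^ p = 1 then m μ else 0 := ⟨_, rfl⟩
  have hw1n : w1 ≤ n := by
    have h4 : (∑ μ ∈ s, m μ : ℕ) = n := by
      have : ((∑ μ ∈ s, m μ : ℕ) : ℂ) = (n : ℂ) := by rw [h2, hn]
      exact_mod_cast this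
    rw [hw1, ← h4]
    refine Finset.sum_le_sum fun μ _ => ?_
    split_ifs <;> simp
  rw [← hw0] at e4
  rw [← hw1] at e5
  simp only at e1 e2
  rw [e3, e2, e4, e5] at e1
  simp only [Finset.sum_const, Finset.card_range, nsmul_eq_mul] at e1
  have e6 : ((p ^ K : ℕ) : ℤ) * (((p : ℤ) - 1) * z) = ((p ^ K : ℕ) : ℤ) * ((p : ℤ) * w0 - w1) := by
    have : (((p ^ K : ℕ) : ℤ) * (((p : ℤ) - 1) * z) : ℂ) =
        ((((p ^ K : ℕ) : ℤ) * ((p : ℤ) * w0 - w1) : ℤ) : ℂ) := by
      push_cast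
      push_cast at e1
      linear_combination e1
    exact_mod_cast this
  have hpK : ((p ^ K : ℕ) : ℤ) ≠ 0 := by
    exact_mod_cast (pow_pos hp.pos K).ne'
  have e7 := mul_left_cancel₀ hpK e6
  rw [e7]
  have : (0 : ℤ) ≤ (p : ℤ) * w0 := by positivity
  have h5 : (w1 : ℤ) ≤ n := by exact_mod_cast hw1n
  linarith

/-- Blichfeldt: integer polynomials in a character have integral inner product with `1` -/
theorem blich_sum {P : Type*} [Group P] [Fintype P] {ψ : P → ℂ} (hψ : IsCharacter P ψ)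
    (c : ℕ → ℤ) (m : ℕ) : ∀ θ : P → ℂ, IsCharacter P θ →
      ∃ k : ℤ, ∑ x : P, θ x * ∏ t ∈ Finset.range m, (ψ x - c t) = (Nat.card P : ℂ) * k := by
  induction m with
  | zero =>
    intro θ hθ
    obtain ⟨n, hn⟩ := Helper4.classInner_char_char hθ Helper4.isCharacter_one
    refine ⟨n, ?_⟩
    unfold classInner at hn
    have hP : (Nat.card P : ℂ) ≠ 0 := by exact_mod_cast Nat.card_pos.ne'
    simp only [map_one, mul_one] at hn
    simp only [Finset.range_zero, Finset.prod_empty, mul_one, Int.cast_natCast]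
    rw [← hn, ← mul_assoc, mul_inv_cancel₀ hP, one_mul]
  | succ m ih =>
    intro θ hθ
    obtain ⟨k1, hk1⟩ := ih (θ * ψ) (Helper4.isCharacter_mul hθ hψ)
    obtain ⟨k2, hk2⟩ := ih θ hθ
    refine ⟨k1 - c m * k2, ?_⟩
    have h1 : ∀ x, θ x * ∏ t ∈ Finset.range (m + 1), (ψ x - c t) =
        (θ * ψ) x * ∏ t ∈ Finset.range m, (ψ x - c t) -
          c m * (θ x * ∏ t ∈ Finset.range m, (ψ x - c t)) := by
      intro x
      rw [Finset.prod_range_succ, Pi.mul_apply]; ring
    simp only [h1, Finset.sum_sub_distrib, ← Finset.mul_sum, hk1, hk2]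
    push_cast; ring

theorem schur_bound {G : Type*} [Group G] [Finite G] (p : ℕ) (hp : p.Prime) (χ : G → ℂ)
    (hχ : IsCharacter G χ) (hfaith : ∀ g : G, χ g = χ 1 → g = 1)
    (hrat : ∃ r : ℕ, 0 < r ∧ ¬ p ∣ r ∧ ∀ g : G, χ g ∈ IntermediateField.adjoin ℚ
      ({Complex.exp (2 * Real.pi * Complex.I / r)} : Set ℂ))
    (n : ℕ) (hn : charDegree χ = n) :
    (Nat.card G).factorization p ≤ ∑ i ∈ Finset.range (n + 1), n / ((p - 1) * p ^ i) := by
  classical
  have : Fact p.Prime := ⟨hp⟩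
  obtain ⟨r, hr, hpr, hrat⟩ := hrat
  obtain ⟨d, hd⟩ := Helper4.char_apply_one hχ
  have hn1 : χ 1 = n := by
    unfold charDegree at hn
    rw [hd] at hn
    simp only [Complex.natCast_re, Nat.floor_natCast] at hn
    rw [hd, hn]
  obtain ⟨P⟩ : Nonempty (Sylow p G) := inferInstance
  obtain ⟨a, ha⟩ : ∃ a, a = (Nat.card G).factorization p := ⟨_, rfl⟩
  have hcard : Nat.card P = p ^ a := by rw [ha]; exact Sylow.card_eq_multiplicity P
  have := Fintype.ofFinite P
  obtain ⟨m, hm⟩ : ∃ m, m = n / (p - 1) := ⟨_, rfl⟩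
  have hp1 : 0 < p - 1 := Nat.sub_pos_of_lt hp.one_lt
  have hpZ : (0 : ℤ) < p := by exact_mod_cast hp.pos
  have hval : ∀ x : P, x ≠ 1 → ∃ t ∈ Finset.range m, χ (x : G) = (((n : ℤ) - p * (t + 1) : ℤ) : ℂ) := by
    intro x hx1
    have hx : (x : G) ^ p ^ (a + 1) = 1 := by
      have h1 : x ^ Nat.card P = 1 := pow_card_eq_one'
      have h2 : (x : G) ^ p ^ a = 1 := by
        rw [← hcard]; exact_mod_cast congrArg Subtype.val h1
      rw [pow_succ, pow_mul, h2, one_pow]
    have hpow : ∀ u : ℕ, u.Coprime p → χ ((x : G) ^ u) = χ x :=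
      fun u hu => prat_pow_eq hχ p r hp hr hpr hrat x (a + 1) hx u hu
    have : NeZero (p ^ (a + 1)) := ⟨(pow_pos hp.pos _).ne'⟩
    obtain ⟨q, hq⟩ := Helper79.IsCharacter.exists_rat_of_pow_eq hχ (p ^ (a + 1)) (x : G) hx
      (fun k hk => hpow k (Nat.Coprime.coprime_dvd_right (dvd_pow_self p (Nat.succ_ne_zero a)) hk))
    obtain ⟨z, hz⟩ := Helper4.exists_int_of_isIntegral_rat (q := q)
      (by rw [← hq]; exact Helper20.isCharacter_isIntegral hχ _)
    have hz' : χ (x : G) = z := by rw [hq, hz]; simp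
    have hcong := Helper77.IsCharacter.int_value_modEq hχ p (a + 1) hp (x : G) hx z hz' n hn1
    have hle : z ≤ n := by
      have h1 := Helper20.isCharacter_norm_le hχ (x : G)
      rw [hn1, hz', Complex.natCast_re, Complex.norm_intCast] at h1
      have h2 : (z : ℝ) ≤ n := le_trans (le_abs_self _) h1
      exact_mod_cast h2
    have hne : z ≠ n := by
      intro h
      apply hx1
      have : (x : G) = 1 := hfaith x (by rw [hz', hn1, h]; simp)
      exact Subtype.ext this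
    have hb := prat_bound hχ p hp (x : G) a hx z hz' hpow n hn1
    obtain ⟨t', ht'⟩ := hcong.dvd
    have ht'pos : 0 < t' := by
      have h1 : 0 < (n : ℤ) - z := by
        have := lt_of_le_of_ne hle hne
        linarith
      rw [ht'] at h1
      exact (mul_pos_iff_of_pos_left hpZ).1 h1
    have hzeq : z = n - p * t' := by linarith
    have hbound : ((p : ℤ) - 1) * t' ≤ n := by
      have h1 : (p : ℤ) * (((p : ℤ) - 1) * t') ≤ p * n := by
        rw [hzeq] at hb
        nlinarith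
      exact le_of_mul_le_mul_left h1 hpZ
    obtain ⟨t, ht⟩ : ∃ t : ℕ, t' = t + 1 := ⟨(t' - 1).toNat, by
      rw [Int.toNat_of_nonneg (by linarith)]; ring⟩
    refine ⟨t, ?_, ?_⟩
    · rw [Finset.mem_range, hm, Nat.lt_iff_add_one_le, Nat.le_div_iff_mul_le hp1]
      have h2 : (((t + 1) * (p - 1) : ℕ) : ℤ) ≤ n := by
        rw [Nat.cast_mul, Nat.cast_sub hp.one_lt.le]
        push_cast
        rw [ht] at hbound
        linarith
      exact_mod_cast h2
    · rw [hz', hzeq, ht]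
  obtain ⟨k, hk⟩ := blich_sum (P := P) (ψ := fun x : P => χ (x : G))
    (Helper4.isCharacter_restrict hχ (P : Subgroup G)) (fun t => (n : ℤ) - p * (t + 1)) m
    (fun _ => 1) Helper4.isCharacter_one
  rw [Finset.sum_eq_single 1] at hk
  · have h1 : ((p ^ m * m.factorial : ℕ) : ℤ) = (p ^ a : ℕ) * k := by
      have h2 : (((p ^ m * m.factorial : ℕ) : ℤ) : ℂ) = (((p ^ a : ℕ) * k : ℤ) : ℂ) := by
        push_cast
        rw [hcard] at hk
        push_cast at hk
        rw [← hk, one_mul, hn1, ← Finset.prod_range_add_one_eq_factorial]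
        push_cast
        have h9 : ∀ x ∈ Finset.range m, ((n : ℂ) - ((n : ℂ) - (p : ℂ) * ((x : ℂ) + 1))) =
            (p : ℂ) * ((x : ℂ) + 1) := fun x _ => by ring
        rw [Finset.prod_congr rfl h9, Finset.prod_mul_distrib, Finset.prod_const,
          Finset.card_range]
      exact_mod_cast h2
    have h3 : p ^ a ∣ p ^ m * m.factorial := by
      have : ((p ^ a : ℕ) : ℤ) ∣ ((p ^ m * m.factorial : ℕ) : ℤ) := ⟨k, h1⟩
      exact_mod_cast this
    have h4 : p ^ m * m.factorial ≠ 0 :=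
      Nat.mul_ne_zero (pow_pos hp.pos m).ne' (Nat.factorial_ne_zero m)
    have h5 := (hp.pow_dvd_iff_le_factorization h4).1 h3
    rw [Nat.factorization_mul (pow_pos hp.pos m).ne' (Nat.factorial_ne_zero m),
      hp.factorization_pow, Finsupp.add_apply, Finsupp.single_eq_same,
      Nat.factorization_factorial hp (b := n + 1) (by
        have h6 : Nat.log p m ≤ m := Nat.log_le_self p m
        have h7 : m ≤ n := by rw [hm]; exact Nat.div_le_self _ _
        omega)] at h5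
    rw [← ha]
    refine le_trans h5 (le_of_eq ?_)
    rw [Finset.range_eq_Ico, Finset.sum_eq_sum_Ico_succ_bot (Nat.succ_pos n)]
    simp only [pow_zero, mul_one, ← Nat.div_div_eq_div_mul, ← hm]
  · intro x _ hx1
    obtain ⟨t, ht, hxt⟩ := hval x hx1
    rw [Finset.prod_eq_zero ht, mul_zero]
    rw [hxt]
    push_cast
    ring
  · simp

end Cfsg.Agent.Lib.Helper63
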