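import Cfsg.Agent.Lib.Helper63.SchurRing2

set_option autoImplicit false

namespace Cfsg.Agent.Lib.Helper63

open MulAction
open scoped Pointwise

variable {H : Type*} [AddCommGroup H] [Fintype H] [DecidableEq H] {G : Subgroup (Equiv.Perm H)}

omit [Fintype H] in
/-- A finite set invariant under translation by an element of prime order `p` has cardinality
divisible by `p`. -/
theorem card_dvd_of_add_invariant (p : ℕ) [Fact p.Prime] (z₀ : H) (hz₀ : z₀ ≠ 0)
    (hpz₀ : p • z₀ = 0) (F : Finset H) (hF : ∀ x ∈ F, x + z₀ ∈ F) : p ∣ F.card := by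
  let f : Function.End F := fun x => ⟨x.1 + z₀, hF x.1 x.2⟩
  have hiter : ∀ (k : ℕ) (x : F), ((f ^ k) x).1 = x.1 + k • z₀ := by
    intro k
    induction k with
    | zero =>
      intro x
      rw [pow_zero, zero_smul, add_zero]
      rfl
    | succ k ih =>
      intro x
      rw [pow_succ']
      change ((f ^ k) x).1 + z₀ = _
      rw [ih, succ_nsmul, add_assoc]
  have hf : f ^ p ^ 1 = 1 := by
    funext x
    apply Subtype.ext
    rw [pow_one, hiter, hpz₀, add_zero]
    rfl
  have h := Equiv.Perm.card_fixedPoints_modEq hf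
  have hfix : Fintype.card (Function.fixedPoints f) = 0 := by
    rw [Fintype.card_eq_zero_iff]
    constructor
    rintro ⟨x, hx⟩
    have : (f x).1 = x.1 := congrArg Subtype.val hx
    apply hz₀
    have h2 : x.1 + z₀ = x.1 := this
    simpa using h2
  rw [hfix, Fintype.card_coe] at h
  exact (Nat.modEq_zero_iff_dvd).1 h

/-- the number of representations is an invariant function -/
theorem SInv.count (hT : HasTranslations G) (R : Type*) [CommSemiring R] {T U : Finset H}
    (hTi : SInv G (T : Set H)) (hU : SInv G (U : Set H)) :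
    SInvFun G (fun h => ((U.filter (fun y => -y + h ∈ T)).card : R)) := by
  have ind : ∀ {T : Finset H}, SInv G (T : Set H) →
      ∃ φ : AddMonoidAlgebra R H, (∀ y, φ.coeff y = if y ∈ T then 1 else 0) ∧
        SInvFun G (fun x => φ.coeff x) := by
    intro T h
    have hφc : ∀ y, (∑ x ∈ T, AddMonoidAlgebra.single x (1 : R)).coeff y
        = if y ∈ T then 1 else 0 := by
      intro y
      rw [AddMonoidAlgebra.coeff_sum, Finsupp.finsetSum_apply]
      simp only [AddMonoidAlgebra.coeff_single, Finsupp.single_apply]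
      rw [Finset.sum_ite_eq']
    refine ⟨_, hφc, ?_⟩
    intro s hs hs0 x
    simp only [hφc]
    have := h.mem_iff hs hs0 x
    simp only [Finset.mem_coe] at this
    simp only [this]
  obtain ⟨φ, hφ, hφi⟩ := ind hTi
  obtain ⟨ψ, hψ, hψi⟩ := ind hU
  have := hψi.mul hT hφi
  convert this using 2
  rename_i h
  rw [AddMonoidAlgebra.coeff_mul_apply_left, Finsupp.sum_fintype _ _ (by simp)]
  simp only [hφ, hψ]
  rw [Finset.card_filter]
  push_cast
  rw [← Finset.sum_filter_add_sum_filter_not Finset.univ (fun y => y ∈ U)]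
  have h2 : ∑ x ∈ Finset.univ.filter (fun y => ¬ y ∈ U),
      (if x ∈ U then (1 : R) else 0) * (if -x + h ∈ T then 1 else 0) = 0 := by
    apply Finset.sum_eq_zero
    intro x hx
    rw [Finset.mem_filter] at hx
    simp [hx.2]
  rw [h2, add_zero]
  have h3 : Finset.univ.filter (fun y => y ∈ U) = U := by
    ext; simp
  rw [h3]
  apply Finset.sum_congr rfl
  intro x hx
  simp [hx]

section Main

variable (hT : HasTranslations G) (hprim : IsPreprimitive G H) (p : ℕ) [Fact p.Prime]
  (hP1 : (Finset.univ.filter (fun x : H => p • x = 0)).card ≤ p)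
  (z₀ : H) (hz₀ : z₀ ≠ 0) (hpz₀ : p • z₀ = 0)

include hT hprim hP1 hz₀ hpz₀

theorem claimA (T : Finset H) (hTinv : SInv G (T : Set H)) (x : H) (hx : x ∈ T)
    (hpx : p • x ≠ 0) (w : H) (hw : p • w = 0) : x + w ∈ T := by
  set P1 : Finset H := Finset.univ.filter (fun x : H => p • x = 0) with hP1def
  have hinv := hTinv.powSet hT p
  have hK := (hinv.closure hT).eq_bot_or_top hT hprim
  have hle : AddSubgroup.closure {y : H | ¬ p ∣ (T.filter (fun x => p • x = y)).card} ≤
      (nsmulAddMonoidHom (α := H) p).range := by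
    rw [AddSubgroup.closure_le]
    intro y hy
    simp only [Set.mem_ofPred_eq] at hy
    have hne : (T.filter (fun x => p • x = y)).Nonempty := by
      rw [Finset.nonempty_iff_ne_empty]
      intro he
      rw [he] at hy
      simp at hy
    obtain ⟨x', hx'⟩ := hne
    rw [Finset.mem_filter] at hx'
    exact ⟨x', hx'.2⟩
  have hne_top : (nsmulAddMonoidHom (α := H) p).range ≠ ⊤ := by
    intro htop
    rw [AddMonoidHom.range_eq_top] at htop
    have hinj := Finite.injective_iff_surjective.2 htop
    apply hz₀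
    apply hinj
    simp [hpz₀]
  have hbot : AddSubgroup.closure {y : H | ¬ p ∣ (T.filter (fun x => p • x = y)).card} = ⊥ := by
    rcases hK with h | h
    · exact h
    · exfalso
      apply hne_top
      rw [eq_top_iff, ← h]
      exact hle
  have hdvd : p ∣ (T.filter (fun x' => p • x' = p • x)).card := by
    by_contra hcon
    have : p • x ∈ AddSubgroup.closure
        {y : H | ¬ p ∣ (T.filter (fun x => p • x = y)).card} :=
      AddSubgroup.subset_closure hcon
    rw [hbot, AddSubgroup.mem_bot] at this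
    exact hpx this
  have hsub : T.filter (fun x' => p • x' = p • x) ⊆ P1.image (fun w => x + w) := by
    intro x' hx'
    rw [Finset.mem_filter] at hx'
    rw [Finset.mem_image]
    refine ⟨x' - x, ?_, by abel⟩
    rw [hP1def, Finset.mem_filter]
    refine ⟨Finset.mem_univ _, ?_⟩
    rw [smul_sub, hx'.2, sub_self]
  have hpos : 0 < (T.filter (fun x' => p • x' = p • x)).card :=
    Finset.card_pos.2 ⟨x, Finset.mem_filter.2 ⟨hx, rfl⟩⟩
  have hge : p ≤ (T.filter (fun x' => p • x' = p • x)).card := Nat.le_of_dvd hpos hdvd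
  have heq : T.filter (fun x' => p • x' = p • x) = P1.image (fun w => x + w) := by
    apply Finset.eq_of_subset_of_card_le hsub
    exact (Finset.card_image_le.trans hP1).trans hge
  have : x + w ∈ P1.image (fun w => x + w) := by
    apply Finset.mem_image_of_mem
    rw [hP1def, Finset.mem_filter]
    exact ⟨Finset.mem_univ _, hw⟩
  rw [← heq, Finset.mem_filter] at this
  exact this.1

theorem claimB (x : H) (hx : x ≠ 0) : ∃ z ∈ sOrbit G x, p • z = 0 := by
  classical
  by_contra hcon
  push Not at hcon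
  set T : Finset H := (sOrbit G x).toFinset with hTdef
  have hTinv : SInv G (T : Set H) := by
    rw [hTdef, Set.coe_toFinset]
    exact sOrbit_inv x
  have hmem : ∀ y, y ∈ T ↔ y ∈ sOrbit G x := by
    intro y; rw [hTdef, Set.mem_toFinset]
  have hstab : z₀ ∈ tStab (T : Set H) := by
    rw [mem_tStab]
    intro c
    constructor
    · intro hc
      have := claimA hT hprim p hP1 z₀ hz₀ hpz₀ T hTinv _ hc (hcon _ ((hmem _).1 hc)) z₀ hpz₀
      simpa using this
    · intro hc
      have := claimA hT hprim p hP1 z₀ hz₀ hpz₀ T hTinv _ hc (hcon _ ((hmem _).1 hc)) (-z₀)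
        (by simp [hpz₀])
      simpa [sub_eq_add_neg] using this
  have htop : tStab (T : Set H) = ⊤ := by
    rcases (hTinv.tStab hT).eq_bot_or_top hT hprim with h | h
    · rw [h, AddSubgroup.mem_bot] at hstab
      exact absurd hstab hz₀
    · exact h
  have hx' : x ∈ tStab (T : Set H) := by rw [htop]; trivial
  rw [mem_tStab] at hx'
  have h0 := (hx' x).2 ((hmem x).2 (mem_sOrbit_self x))
  rw [sub_self] at h0
  exact zero_notMem_sOrbit hx ((hmem 0).1 h0)

/-- Wielandt's theorem: a primitive group containing a regular abelian subgroup `H` of composite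
order with a non-trivial cyclic Sylow `p`-subgroup is doubly transitive. -/
theorem wielandt_cyclic_sylow (b₀ : H) (hb₀ : p • b₀ ≠ 0) :
    ∀ x y : H, x ≠ 0 → y ≠ 0 → ∃ s ∈ G, s 0 = 0 ∧ s x = y := by
  classical
  have hp : p.Prime := Fact.out
  intro x y hx hy
  by_contra hcon
  have hynot : y ∉ sOrbit G x := hcon
  set Ti : Finset H := (sOrbit G x).toFinset with hTidef
  set Tj : Finset H := (sOrbit G y).toFinset with hTjdef
  have hTi : SInv G (Ti : Set H) := by
    rw [hTidef, Set.coe_toFinset]; exact sOrbit_inv x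
  have hTj : SInv G (Tj : Set H) := by
    rw [hTjdef, Set.coe_toFinset]; exact sOrbit_inv y
  have hmi : ∀ v, v ∈ Ti ↔ v ∈ sOrbit G x := by
    intro v; rw [hTidef, Set.mem_toFinset]
  have hmj : ∀ v, v ∈ Tj ↔ v ∈ sOrbit G y := by
    intro v; rw [hTjdef, Set.mem_toFinset]
  have hdisj : ∀ v, v ∈ Ti → v ∈ Tj → False := by
    intro v h1 h2
    apply hynot
    rw [← sOrbit_eq_of_mem ((hmi v).1 h1), sOrbit_eq_of_mem ((hmj v).1 h2)]
    exact mem_sOrbit_self y
  have h0i : (0 : H) ∉ Ti := fun h => zero_notMem_sOrbit hx ((hmi 0).1 h)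
  have h0j : (0 : H) ∉ Tj := fun h => zero_notMem_sOrbit hy ((hmj 0).1 h)
  have cA := claimA hT hprim p hP1 z₀ hz₀ hpz₀
  -- an element of `Ti` outside `P1`
  obtain ⟨b, hb, hpb⟩ : ∃ b ∈ Ti, p • b ≠ 0 := by
    by_contra hc
    push Not at hc
    have hle : AddSubgroup.closure (Ti : Set H) ≤ (nsmulAddMonoidHom (α := H) p).ker := by
      rw [AddSubgroup.closure_le]
      intro v hv
      exact hc v hv
    rcases (hTi.closure hT).eq_bot_or_top hT hprim with h | h
    · have : x ∈ AddSubgroup.closure (Ti : Set H) :=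
        AddSubgroup.subset_closure ((hmi x).2 (mem_sOrbit_self x))
      rw [h, AddSubgroup.mem_bot] at this
      exact hx this
    · have : b₀ ∈ (nsmulAddMonoidHom (α := H) p).ker := hle (by rw [h]; trivial)
      exact hb₀ this
  obtain ⟨y', hy', hpy'⟩ := claimB hT hprim p hP1 z₀ hz₀ hpz₀ y hy
  have hy'j : y' ∈ Tj := (hmj _).2 hy'
  have hy'0 : y' ≠ 0 := fun h => h0j (h ▸ hy'j)
  set Ai : Finset H := Ti.filter (fun v => p • v = 0) with hAi
  set Aj : Finset H := Tj.filter (fun v => p • v = 0) with hAj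
  have hcount := SInv.count hT (ZMod p) hTi hTj
  -- general splitting
  have hsplit : ∀ h : H, (∀ v ∈ Tj, p • v ≠ 0 → -v + h ∈ Ti → p • (-v + h) ≠ 0) →
      ((Tj.filter (fun v => -v + h ∈ Ti)).card : ZMod p)
        = ((Aj.filter (fun v => -v + h ∈ Ti)).card : ZMod p) := by
    intro h hh
    have e1 : (Tj.filter (fun v => -v + h ∈ Ti)).card =
        (Aj.filter (fun v => -v + h ∈ Ti)).card +
        ((Tj.filter (fun v => -v + h ∈ Ti)).filter (fun v => ¬ p • v = 0)).card := by
      rw [← Finset.card_filter_add_card_filter_not (s := Tj.filter (fun v => -v + h ∈ Ti))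
        (fun v => p • v = 0)]
      congr 1
      rw [hAj, Finset.filter_filter, Finset.filter_filter]
      congr 1
      ext v
      simp only [Finset.mem_filter]
      tauto
    have e2 : p ∣ ((Tj.filter (fun v => -v + h ∈ Ti)).filter (fun v => ¬ p • v = 0)).card := by
      apply card_dvd_of_add_invariant p z₀ hz₀ hpz₀
      intro v hv
      simp only [Finset.mem_filter] at hv ⊢
      obtain ⟨⟨hv1, hv2⟩, hv3⟩ := hv
      refine ⟨⟨cA Tj hTj v hv1 hv3 z₀ hpz₀, ?_⟩, ?_⟩
      · have := cA Ti hTi _ hv2 (hh v hv1 hv3 hv2) (-z₀) (by simp [hpz₀])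
        convert this using 1
        abel
      · rw [smul_add, hpz₀, add_zero]; exact hv3
    rw [e1]
    push_cast
    rw [(ZMod.natCast_eq_zero_iff _ _).2 e2, add_zero]
  -- value at `b`
  have hNb : ((Tj.filter (fun v => -v + b ∈ Ti)).card : ZMod p) = (Aj.card : ZMod p) := by
    rw [hsplit b]
    · congr 2
      apply Finset.filter_true_of_mem
      intro v hv
      rw [hAj, Finset.mem_filter] at hv
      have := cA Ti hTi b hb hpb (-v) (by simp [hv.2])
      rwa [add_comm] at this
    · intro v hv hpv hvb hcon2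
      -- then v ∈ b + P1 ⊆ Ti
      have : b + (-(-v + b)) ∈ Ti := cA Ti hTi b hb hpb _ (by simp only [smul_neg, hcon2, neg_zero])
      have e : b + (-(-v + b)) = v := by abel
      rw [e] at this
      exact hdisj v this hv
  -- value at `z ∈ Ai`
  have hNz : ∀ z ∈ Ai, ((Tj.filter (fun v => -v + z ∈ Ti)).card : ZMod p)
      = ((Aj.filter (fun v => -v + z ∈ Ti)).card : ZMod p) := by
    intro z hz
    rw [hAi, Finset.mem_filter] at hz
    apply hsplit z
    intro v _ hpv _ hcon2
    apply hpv
    rw [smul_add, hz.2, add_zero, smul_neg, neg_eq_zero] at hcon2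
    exact hcon2
  have hAjle : Aj.card < p := by
    have hsub : Aj ⊆ (Finset.univ.filter (fun x : H => p • x = 0)).erase 0 := by
      intro v hv
      rw [hAj, Finset.mem_filter] at hv
      rw [Finset.mem_erase, Finset.mem_filter]
      exact ⟨fun h => h0j (h ▸ hv.1), Finset.mem_univ _, hv.2⟩
    have h1 := Finset.card_le_card hsub
    rw [Finset.card_erase_of_mem (by simp)] at h1
    have : 0 < (Finset.univ.filter (fun x : H => p • x = 0)).card :=
      Finset.card_pos.2 ⟨0, by simp⟩
    omega
  have hAile : Ai.card < p := by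
    have hsub : Ai ⊆ (Finset.univ.filter (fun x : H => p • x = 0)).erase 0 := by
      intro v hv
      rw [hAi, Finset.mem_filter] at hv
      rw [Finset.mem_erase, Finset.mem_filter]
      exact ⟨fun h => h0i (h ▸ hv.1), Finset.mem_univ _, hv.2⟩
    have h1 := Finset.card_le_card hsub
    rw [Finset.card_erase_of_mem (by simp)] at h1
    have : 0 < (Finset.univ.filter (fun x : H => p • x = 0)).card :=
      Finset.card_pos.2 ⟨0, by simp⟩
    omega
  have hkey : ∀ z ∈ Ai, z + (-y') ∈ Ai := by
    intro z hz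
    have hz' := hz
    rw [hAi, Finset.mem_filter] at hz'
    -- z and b are in the same orbit
    have hzb : ∃ s ∈ G, s 0 = 0 ∧ s z = b := by
      have h1 : b ∈ sOrbit G z := by
        rw [sOrbit_eq_of_mem ((hmi z).1 hz'.1)]
        exact (hmi b).1 hb
      exact h1
    obtain ⟨s, hs, hs0, hsz⟩ := hzb
    have e := hcount s hs hs0 z
    simp only [hsz] at e
    rw [hNb, hNz z hz] at e
    have hle : (Aj.filter (fun v => -v + z ∈ Ti)).card ≤ Aj.card := Finset.card_filter_le _ _
    have heq : (Aj.filter (fun v => -v + z ∈ Ti)).card = Aj.card := by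
      have h2 := (ZMod.natCast_eq_natCast_iff' _ _ _).1 e
      rw [Nat.mod_eq_of_lt hAjle, Nat.mod_eq_of_lt (lt_of_le_of_lt hle hAjle)] at h2
      exact h2.symm
    have hall : Aj.filter (fun v => -v + z ∈ Ti) = Aj :=
      Finset.eq_of_subset_of_card_le (Finset.filter_subset _ _) heq.ge
    have hy'A : y' ∈ Aj := by
      rw [hAj, Finset.mem_filter]; exact ⟨hy'j, hpy'⟩
    rw [← hall, Finset.mem_filter] at hy'A
    rw [hAi, Finset.mem_filter]
    refine ⟨by rw [add_comm]; exact hy'A.2, ?_⟩
    rw [smul_add, hz'.2, smul_neg, hpy', neg_zero, add_zero]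
  have hdvd := card_dvd_of_add_invariant p (-y') (neg_ne_zero.2 hy'0) (by simp [hpy']) Ai hkey
  obtain ⟨z, hz, hpz⟩ := claimB hT hprim p hP1 z₀ hz₀ hpz₀ x hx
  have hpos : 0 < Ai.card := Finset.card_pos.2 ⟨z, by
    rw [hAi, Finset.mem_filter]; exact ⟨(hmi z).2 hz, hpz⟩⟩
  exact absurd (Nat.le_of_dvd hpos hdvd) (by omega)

end Main

end Cfsg.Agent.Lib.Helper63
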